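import Cfsg.Agent.H732.OZ.LRow
import Cfsg.Agent.H732.Bit.SpBit
import Cfsg.Agent.H733.OZ.Good
import Cfsg.Agent.Nodes.WittInst
import Cfsg.Agent.LieClassical.FieldTransfer
import Cfsg.Agent.S0245
import Cfsg.Agent.S0246

/-!
# S4842: the row `PSp_6(2)` (helper732)
-/

set_option autoImplicit false
set_option maxRecDepth 100000

namespace Cfsg.Agent.H732.OZ

open Cfsg Cfsg.Agent.Characters Cfsg.Agent.H686.CharKit Cfsg.Agent.H732.VZ Cfsg.Agent.H732.Bit
open Cfsg.Agent.H730.OZ
open Matrix

universe u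

namespace S6

abbrev G := Spm 3

noncomputable instance (priority := high) instFG : Fintype G := Fintype.ofFinite _

def g9 : G := sp 3 [21, 26, 44, 29, 38, 30] (by decide)
def h10 : G := sp 3 [36, 37, 17, 15, 26, 39] (by decide)
def z7 : G := sp 3 [31, 52, 61, 59, 10, 17] (by decide)

theorem g9_ord : orderOf g9 = 9 := orderOf_sp _ (by norm_num) (ms := [3]) (by decide)
theorem h10_ord : orderOf h10 = 10 := orderOf_sp _ (by norm_num) (ms := [2, 5]) (by decide)
theorem z7_ord : orderOf z7 = 7 := orderOf_sp _ (by norm_num) (ms := [1]) (by decide)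

theorem g9_conj : IsConj g9 (g9 ^ 2) := isConj_sp_pow (c := [3, 35, 25, 52, 36, 24]) _ (by decide) (by decide)

theorem g9_rat : RatEl g9 := by
  refine ratEl_of (t := 2) g9_conj ?_
  rw [g9_ord]
  decide

theorem g9_card : Nat.card (Subgroup.centralizer ({g9} : Set G)) ≤ 9 :=
  (card_sp_le (v := 1) (cert := [[(0, 0)], [(0, 0), (0, 1), (0, 2), (0, 3), (0, 4), (0, 5)],
      [(0, 1), (0, 4), (0, 5)], [(0, 0), (0, 3), (0, 4), (0, 5)], [(0, 0), (0, 4), (0, 5)],
      [(0, 1), (0, 2), (0, 5)]]) _ (by decide)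
    [mulL (jL 3) (powL 6 [21, 26, 44, 29, 38, 30] 1), mulL (jL 3) (powL 6 [21, 26, 44, 29, 38, 30] 2),
      mulL (jL 3) (powL 6 [21, 26, 44, 29, 38, 30] 3)] (by decide)).trans (by decide)

theorem card_G : Nat.card G = 1451520 := by
  rw [Cfsg.Agent.S0245.result (F := ZMod 2) (q := 2) (ZMod.card 2) 3]
  decide +kernel

theorem center_bot : Subgroup.center G = ⊥ := by
  have h := Cfsg.Agent.S0246.result (F := ZMod 2) (q := 2) (ZMod.card 2) 3 (by norm_num)
  exact Subgroup.card_eq_one.1 h

/-- `PSp₆(2) ≃* Sp₆(2)` -/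
noncomputable def equiv₀ : Cfsg.PSp 3 (ZMod 2) ≃* G :=
  (QuotientGroup.quotientMulEquivOfEq center_bot).trans QuotientGroup.quotientBot

/-- `PSp₆(F) ≃* Sp₆(2)`, `|F| = 2` -/
noncomputable def equiv {F : Type*} [Field F] [Fintype F] (hF : Fintype.card F = 2) : Cfsg.PSp 3 F ≃* G :=
  (LieClassical.FieldTransfer.pspCongr 3 (ZMod.ringEquivOfPrime F Nat.prime_two hF).symm).trans equiv₀

theorem ncard_two : (pSet 2 G).ncard = 262144 := by
  have : Fact (Nat.Prime 2) := ⟨Nat.prime_two⟩
  have e := equiv₀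
  have : Finite (Cfsg.PSp 3 (ZMod 2)) := Finite.of_equiv _ e.symm.toEquiv
  have hR := Cfsg.Agent.Nodes.WittInst.hasRGD_PSp (F := ZMod 2) (m := 3) (by norm_num) (p := 2)
  have h1 := Cfsg.Agent.H115.card_pel_of_hasRGD' hR (a := 9) (m := 2835)
    (by rw [Nat.card_congr e.toEquiv, card_G]; norm_num) (by norm_num)
  rw [← pSet_congr e]
  have h2 : (pSet 2 (Cfsg.PSp 3 (ZMod 2))).ncard = (2 ^ 9) ^ 2 := by
    rw [← h1]
    exact (Nat.card_coe_set_eq _).symm
  rw [h2]
  norm_num

theorem primes : ∀ p ∈ (1451520 : ℕ).primeFactors, p = 2 ∨ p = 3 ∨ p = 5 ∨ p = 7 := by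
  intro p hp
  have hp' := Nat.prime_of_mem_primeFactors hp
  have hd := Nat.dvd_of_mem_primeFactors hp
  rw [show (1451520 : ℕ) = 2 ^ 9 * (3 ^ 4 * (5 * 7)) by norm_num] at hd
  rcases hp'.dvd_mul.1 hd with h | hd
  · left; exact (Nat.prime_dvd_prime_iff_eq hp' Nat.prime_two).1 (hp'.dvd_of_dvd_pow h)
  rcases hp'.dvd_mul.1 hd with h | hd
  · right; left; exact (Nat.prime_dvd_prime_iff_eq hp' Nat.prime_three).1 (hp'.dvd_of_dvd_pow h)
  rcases hp'.dvd_mul.1 hd with h | hd
  · right; right; left; exact (Nat.prime_dvd_prime_iff_eq hp' (by norm_num)).1 h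
  · right; right; right; exact (Nat.prime_dvd_prime_iff_eq hp' (by norm_num)).1 hd

theorem none [IsSimpleGroup G] {χ : G → ℂ} (hχ : IsIrrCharacter _ χ) : ¬ OneZero χ := by
  classical
  intro h0
  obtain ⟨x, h⟩ := (oneZero_iff hχ).1 h0
  have h3p : Nat.Prime 3 := Nat.prime_three
  have h2p : Nat.Prime 2 := Nat.prime_two
  have h7p : Nat.Prime 7 := by norm_num
  have hna : ¬ IsMulCommutative G := by
    refine not_comm_of g9_conj fun h2 => ?_
    have h3 : g9 = 1 := by
      rw [pow_two] at h2
      exact mul_left_cancel (h2.symm.trans (mul_one _).symm)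
    have h4 := g9_ord
    rw [h3, orderOf_one] at h4
    omega
  have hc2 := h.two_le
  have h5 : ¬ 5 ∣ charDegree χ := by
    have h1 := not_dvd_of_exact h (r := 5) (a := 1) (m := 290304) (by norm_num)
      (by rw [card_G]; norm_num) (by norm_num) (y := h10) (z := h10 ^ 2) (by rw [h10_ord]; norm_num)
      (by rw [orderOf_pow' _ (by norm_num), h10_ord]; norm_num)
      (not_isConj_of_orderOf (by rw [orderOf_pow' _ (by norm_num), h10_ord]; norm_num))
    rwa [pow_one] at h1
  -- the even case
  have heven : 2 ∣ charDegree χ → (¬ IsREl 2 x → Nat.card (Subgroup.centralizer ({x} : Set G)) ≤ 5) ∧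
      Nat.card (Subgroup.centralizer ({x} : Set G)) ≤ 11 := by
    intro h2
    obtain ⟨h3, h4⟩ := even_excess h ncard_two h2 (ex_empty _) fun g hg => absurd hg (Finset.notMem_empty g)
    rw [card_G] at h3 h4
    constructor
    · intro hx
      have := h3 hx
      omega
    · omega
  -- 3 does not divide the degree
  have h3 : ¬ 3 ∣ charDegree χ := by
    intro h3
    have hxg : IsConj x g9 := by
      by_contra hx
      have h1 := h.rat_le h3p h3 g9_rat (a := 2) (by
        have : (3 : ℕ) ^ 2 = orderOf g9 := by rw [g9_ord]; norm_num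
        rw [this, pow_orderOf_eq_one]) hx
      have h2 := g9_card
      have h4 : 8 * Nat.card (Subgroup.centralizer ({x} : Set G)) ≤ Nat.card (Subgroup.centralizer ({g9} : Set G)) := h1
      omega
    have hox : orderOf x = 9 := (orderOf_conj' hxg).trans g9_ord
    have hc9 : 9 ≤ Nat.card (Subgroup.centralizer ({x} : Set G)) := by
      have h1 := orderOf_dvd_centralizer (Commute.refl x)
      rw [hox] at h1
      exact Nat.le_of_dvd Nat.card_pos h1
    have h2 : ¬ 2 ∣ charDegree χ := by
      intro h2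
      have h4 := (heven h2).1 (not_isREl h2p h3p (by norm_num) (by rw [hox]; norm_num))
      omega
    have h7 : ¬ 7 ∣ charDegree χ := by
      intro h7
      have h1 := zero_of_defect (a := 1) (n := 207360) h7p (by rw [card_G]; norm_num) (by norm_num) ⟨χ, hχ⟩
        (by rwa [pow_one]) (g := z7) (by rw [z7_ord])
      have h4 := orderOf_conj' (h.uniq _ h1)
      rw [hox, z7_ord] at h4
      omega
    obtain ⟨j, hj⟩ := exists_pow_of (r := 3) (charDegree_dvd_card ⟨χ, hχ⟩) Nat.card_pos.ne' (fun p hp hpd => by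
      rw [card_G] at hp
      rcases primes p hp with rfl | rfl | rfl | rfl
      · exact absurd hpd h2
      · rfl
      · exact absurd hpd h5
      · exact absurd hpd h7)
    have h4 := (h.central hna h3p hj (a := 4) (m := 17920) (by rw [card_G]; norm_num) (by norm_num)).1
    omega
  -- 7 does not divide the degree
  have h7 : ¬ 7 ∣ charDegree χ := by
    intro h7
    have h1 := zero_of_defect (a := 1) (n := 207360) h7p (by rw [card_G]; norm_num) (by norm_num) ⟨χ, hχ⟩
      (by rwa [pow_one]) (g := z7) (by rw [z7_ord])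
    have hxz := h.uniq _ h1
    have hox : orderOf x = 7 := (orderOf_conj' hxz).trans z7_ord
    have hc7 : 7 ≤ Nat.card (Subgroup.centralizer ({x} : Set G)) := by
      have h1 := orderOf_dvd_centralizer (Commute.refl x)
      rw [hox] at h1
      exact Nat.le_of_dvd Nat.card_pos h1
    have h2 : ¬ 2 ∣ charDegree χ := by
      intro h2
      have h4 := (heven h2).1 (not_isREl h2p h7p (by norm_num) (by rw [hox]))
      omega
    obtain ⟨j, hj⟩ := exists_pow_of (r := 7) (charDegree_dvd_card ⟨χ, hχ⟩) Nat.card_pos.ne' (fun p hp hpd => by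
      rw [card_G] at hp
      rcases primes p hp with rfl | rfl | rfl | rfl
      · exact absurd hpd h2
      · exact absurd hpd h3
      · exact absurd hpd h5
      · rfl)
    have hd7 : charDegree χ = 7 := by
      have h4 : 7 ^ j ∣ 1451520 := by
        have := charDegree_dvd_card (⟨χ, hχ⟩ : IrrCharacter G)
        rwa [hj, card_G] at this
      have hj2 : j < 2 := by
        by_contra hj2
        have h5 := (pow_dvd_pow 7 (not_lt.1 hj2)).trans h4
        norm_num at h5
      have hj0 : j ≠ 0 := by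
        rintro rfl
        have h8 : charDegree χ = 7 ^ 0 := hj
        rw [pow_zero] at h8
        rw [h8] at h7
        omega
      have hj1 : j = 1 := by omega
      have h8 : charDegree χ = 7 ^ j := hj
      rw [h8, hj1, pow_one]
    have h4 := Cfsg.Agent.H733.OZ.cent_le h (r := 5) (n := 1) (by norm_num) (by rw [card_G]; norm_num)
      (by rw [card_G]; norm_num) (by
        show ¬ 5 ^ 1 ∣ charDegree χ ^ 2 - 1
        rw [hd7]
        norm_num)
    have h6 : Nat.card (Subgroup.centralizer ({x} : Set G)) ≤ 5 ^ 1 := h4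
    omega
  -- a power of two
  obtain ⟨j, hj⟩ := exists_pow_of (r := 2) (charDegree_dvd_card ⟨χ, hχ⟩) Nat.card_pos.ne' (fun p hp hpd => by
    rw [card_G] at hp
    rcases primes p hp with rfl | rfl | rfl | rfl
    · rfl
    · exact absurd hpd h3
    · exact absurd hpd h5
    · exact absurd hpd h7)
  obtain ⟨-, h4⟩ := h.central hna h2p hj (a := 9) (m := 2835) (by rw [card_G]; norm_num) (by norm_num)
  have h6 : 2 ^ 9 ≤ Nat.card (Subgroup.centralizer ({x} : Set G)) := Nat.le_of_dvd Nat.card_pos h4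
  rcases Nat.eq_zero_or_pos j with rfl | hj0
  · have h8 : charDegree χ = 2 ^ 0 := hj
    have h9 : IsConj x g9 := h.uniq _ (eq_zero_of_coprime hna ⟨χ, hχ⟩ h.zero (fun h0 => by
      have := g9_ord
      rw [h0, orderOf_one] at this
      omega) (by rw [hj, pow_zero]; exact Nat.coprime_one_right _))
    have h10 := (card_centralizer_eq h9).trans_le g9_card
    omega
  · have hd2 : 2 ∣ charDegree χ := by
      have h8 : charDegree χ = 2 ^ j := hj
      rw [h8]
      exact dvd_pow_self 2 hj0.ne'
    have := (heven hd2).2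
    omega

end S6

/-- **The row `PSp_6(2)`.** -/
theorem row_psp6_two {S : Type u} [Group S] [Finite S] (hs : IsSimpleGroup S) {F : Type*} [Field F] [Fintype F]
    (hF : Fintype.card F = 2) (h : Nonempty (S ≃* PSp 3 F)) : H730.OZ.Row S := by
  obtain ⟨e⟩ := h
  have e' : S ≃* S6.G := e.trans (S6.equiv hF)
  have : Nontrivial S6.G := e'.symm.toEquiv.nontrivial
  have : IsSimpleGroup S6.G := IsSimpleGroup.isSimpleGroup_of_surjective e'.toMonoidHom e'.surjective
  exact H730.OZ.Row.congr e' (Row.of_none fun χ hχ => S6.none hχ)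

end Cfsg.Agent.H732.OZ
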